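import Cfsg.Agent.Lib.F2C.Defs
import Cfsg.Agent.S0026
import Cfsg.Agent.S0058

set_option autoImplicit false
set_option linter.unusedSectionVars false
set_option linter.unusedVariables false
set_option linter.style.haveILetI false

namespace H33.F2C

universe u

variable {G : Type*} [Group G] [Finite G]

theorem mem_sup_nm {A B : Subgroup G} (h : B ≤ Nm A) {g : G} :
    g ∈ A ⊔ B ↔ ∃ a ∈ A, ∃ b ∈ B, g = a * b := by
  rw [← SetLike.mem_coe, Subgroup.coe_mul_of_right_le_normalizer_left A B h]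
  constructor
  · rintro ⟨a, ha, b, hb, rfl⟩
    exact ⟨a, ha, b, hb, rfl⟩
  · rintro ⟨a, ha, b, hb, rfl⟩
    exact ⟨a, ha, b, hb, rfl⟩

theorem psup {r : ℕ} {A B : Subgroup G} (h : B ≤ Nm A) (hA : IsPGroup r A) (hB : IsPGroup r B) :
    IsPGroup r ↥(A ⊔ B) := hA.to_sup_of_normal_left' hB h

theorem solv_sup {A B : Subgroup G} (h : B ≤ Nm A) (hA : Group.IsSolvable A) (hB : Group.IsSolvable B) :
    Group.IsSolvable ↥(A ⊔ B) := by
  haveI hN : (A.subgroupOf (A ⊔ B)).Normal :=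
    (Subgroup.normal_subgroupOf_iff_le_normalizer le_sup_left).2 (sup_le Subgroup.le_normalizer h)
  let f : B →* ↥(A ⊔ B) ⧸ A.subgroupOf (A ⊔ B) :=
    (QuotientGroup.mk' _).comp (Subgroup.inclusion le_sup_right)
  have hf : Function.Surjective f := by
    intro q
    obtain ⟨⟨g, hg⟩, rfl⟩ := QuotientGroup.mk'_surjective _ q
    obtain ⟨a, ha, b, hb, rfl⟩ := (mem_sup_nm h).1 hg
    refine ⟨⟨b, hb⟩, ?_⟩
    change QuotientGroup.mk _ = QuotientGroup.mk _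
    rw [QuotientGroup.eq, Subgroup.mem_subgroupOf]
    have : b⁻¹ * a * b ∈ A := by
      have := cj_mem (g := b⁻¹) ha
      rw [cj_eq_iff.2 (h (B.inv_mem hb))] at this
      simpa using this
    simpa [mul_assoc] using this
  haveI : Group.IsSolvable (↥(A ⊔ B) ⧸ A.subgroupOf (A ⊔ B)) :=
    Group.isSolvable_of_surjective hf
  exact Group.isSolvable_of_ker_le_range (Subgroup.inclusion (le_sup_left : A ≤ A ⊔ B))
    (QuotientGroup.mk' (A.subgroupOf (A ⊔ B))) (by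
      intro g hg
      rw [QuotientGroup.ker_mk', Subgroup.mem_subgroupOf] at hg
      exact ⟨⟨g, hg⟩, rfl⟩)

theorem p_nil {r : ℕ} (hr : r.Prime) {A : Subgroup G} (hA : IsPGroup r A) : Group.IsNilpotent A := by
  haveI := Fact.mk hr
  exact hA.isNilpotent

theorem center_ne {U : Subgroup G} (hU : Group.IsNilpotent U) (h : U ≠ ⊥) : U ⊓ Ce U ≠ ⊥ := by
  haveI : Nontrivial U := (Subgroup.nontrivial_iff_ne_bot U).2 h
  intro hb
  apply Group.IsNilpotent.center_ne_bot (G := U)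
  rw [eq_bot_iff]
  intro z hz
  have : (z : G) ∈ U ⊓ Ce U := ⟨z.2, Subgroup.mem_centralizer_iff.2 fun a ha =>
    congrArg Subtype.val (Subgroup.mem_center_iff.1 hz ⟨a, ha⟩)⟩
  rw [hb, Subgroup.mem_bot] at this
  exact Subgroup.mem_bot.2 (Subtype.ext this)

theorem ex_max (E : Set (Subgroup G)) {K : Subgroup G} (hK : K ∈ E) :
    ∃ D, K ≤ D ∧ Maximal (· ∈ E) D := (Set.toFinite E).exists_le_maximal hK

/-- normaliser condition in a `p`-group -/
theorem climb {p : ℕ} (hp : p.Prime) {S H : Subgroup G} (hS : IsPGroup p S)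
    (h : ∀ n ∈ S, n ∈ Nm (S ⊓ H) → n ∈ H) : S ≤ H := by
  haveI := p_nil hp hS
  have := (normalizerCondition_iff_only_full_group_self_normalizing.1
    (Group.normalizerCondition_of_isNilpotent (G := S))) ((S ⊓ H).subgroupOf S) (by
      refine le_antisymm (fun n hn => ?_) Subgroup.le_normalizer
      rw [← Subgroup.subgroupOf_normalizer_eq inf_le_left, Subgroup.mem_subgroupOf] at hn
      exact Subgroup.mem_subgroupOf.2 ⟨n.2, h n n.2 hn⟩)
  exact (Subgroup.subgroupOf_eq_top.1 this).trans inf_le_right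

theorem eq_of_card {r : ℕ} (hr : r.Prime) {A B : Subgroup G} (hB : Nat.card B = r) (h : A ≤ B)
    (hA : A ≠ ⊥) : A = B := by
  have hd : Nat.card A ∣ r := hB ▸ Subgroup.card_dvd_of_le h
  rcases (Nat.dvd_prime hr).1 hd with h1 | h1
  · exact absurd (Subgroup.eq_bot_of_card_eq A h1) hA
  · exact Subgroup.eq_of_le_of_card_ge h (by rw [hB, h1])

theorem cent_of_card {r : ℕ} (hr : r.Prime) {U Z : Subgroup G} (hU : IsPGroup r U)
    (hZ : Nat.card Z = r) (h : U ≤ Nm Z) : U ≤ Ce Z := by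
  by_contra hn
  have hZp : IsPGroup r Z := IsPGroup.of_card (n := 1) (by rw [hZ, pow_one])
  have h1 : ⁅Z, U⁆ = Z := eq_of_card hr hZ (comm_le_left h) fun hb => hn (ce_symm (comm_bot.1 hb))
  obtain ⟨n, hn'⟩ := (Subgroup.isNilpotent_iff_lowerCentralSeries _).1 (p_nil hr (psup h hZp hU))
  have h2 : ∀ m, Z ≤ (Z ⊔ U).lowerCentralSeries m := by
    intro m
    induction m with
    | zero => exact le_sup_left
    | succ m ih =>
      rw [Subgroup.lowerCentralSeries_succ]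
      exact h1.ge.trans (Subgroup.commutator_mono ih le_sup_right)
  have h3 : Z = ⊥ := eq_bot_iff.2 (hn' ▸ h2 n)
  rw [h3, Subgroup.card_bot] at hZ
  exact hr.one_lt.ne hZ

theorem cop_mem {p : ℕ} (hp : p.Prime) {F S : Subgroup G} (hn : S ≤ Nm F) (hS : IsPGroup p S) {g : G}
    (hg : g ∈ F ⊔ S) (ho : (orderOf g).Coprime p) : g ∈ F := by
  obtain ⟨f, hf, s, hs, rfl⟩ := (mem_sup_nm hn).1 hg
  have key : ∀ n : ℕ, ∃ f' ∈ F, (f * s) ^ n = f' * s ^ n := by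
    intro n
    induction n with
    | zero => exact ⟨1, F.one_mem, by simp⟩
    | succ n ih =>
      obtain ⟨f', hf', e⟩ := ih
      refine ⟨f' * (s ^ n * f * (s ^ n)⁻¹), F.mul_mem hf' ?_, by rw [pow_succ, e, pow_succ]; group⟩
      have := cj_mem (g := s ^ n) hf
      rwa [cj_eq_iff.2 (hn (S.pow_mem hs n))] at this
  obtain ⟨k, hk⟩ := hS ⟨s, hs⟩
  have hk' : s ^ p ^ k = 1 := congrArg Subtype.val hk
  obtain ⟨f', hf', e⟩ := key (p ^ k)
  rw [hk', mul_one] at e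
  obtain ⟨m, hm⟩ := exists_pow_eq_self_of_coprime (x := f * s) (n := p ^ k)
    (Nat.Coprime.pow_left k ho.symm)
  rw [← hm, e]
  exact F.pow_mem hf' m

theorem syl2 {r : ℕ} (hr : r.Prime) {T A B : Subgroup G} (hA : A ≤ T) (hB : B ≤ T) (hA' : IsPGroup r A)
    (hB' : IsPGroup r B) : ∃ c ∈ T, ∃ S : Subgroup G, S ≤ T ∧ IsPGroup r S ∧ cj c A ≤ S ∧ B ≤ S := by
  haveI := Fact.mk hr
  obtain ⟨P, hP⟩ := (hA'.comap_subtype (K := T)).exists_le_sylow
  obtain ⟨Q, hQ⟩ := (hB'.comap_subtype (K := T)).exists_le_sylow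
  obtain ⟨g, hg⟩ := MulAction.exists_smul_eq T P Q
  refine ⟨g, g.2, (Q : Subgroup T).map T.subtype, Subgroup.map_subtype_le _, Q.isPGroup'.map _, ?_, ?_⟩
  · rintro _ ⟨a, ha, rfl⟩
    refine ⟨g * ⟨a, hA ha⟩ * g⁻¹, ?_, rfl⟩
    rw [← hg]
    have : (⟨a, hA ha⟩ : T) ∈ (P : Subgroup T) := hP ha
    exact Subgroup.smul_mem_pointwise_smul _ (MulAut.conj g) _ this
  · intro b hb
    exact ⟨⟨b, hB hb⟩, hQ hb, rfl⟩

theorem cj_into {p : ℕ} (hp : p.Prime) {F S R : Subgroup G} (hF : Cop p F) (hn : S ≤ Nm F)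
    (hS : IsPGroup p S) (hR : IsPGroup p R) (h : R ≤ F ⊔ S) : ∃ f ∈ F, cj f R ≤ S := by
  obtain ⟨c, hc, S', hS1, hS2, h1, h2⟩ := syl2 hp h le_sup_right hR hS
  have hle : S' ≤ S := by
    intro g hg
    obtain ⟨f, hf, s, hs, rfl⟩ := (mem_sup_nm hn).1 (hS1 hg)
    have hf' : f ∈ S' := by simpa using S'.mul_mem hg (S'.inv_mem (h2 hs))
    obtain ⟨k, hk⟩ := hS2 ⟨f, hf'⟩
    have h3 : orderOf f ∣ p ^ k := orderOf_dvd_of_pow_eq_one (congrArg Subtype.val hk)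
    have h4 : orderOf f ∣ Nat.card F := F.orderOf_dvd_natCard hf
    have h5 : orderOf f = 1 :=
      Nat.eq_one_of_dvd_coprimes (Nat.Coprime.pow_right k hF) h4 h3
    rw [orderOf_eq_one_iff.1 h5, one_mul]
    exact hs
  obtain ⟨f, hf, s, hs, rfl⟩ := (mem_sup_nm hn).1 hc
  refine ⟨s⁻¹ * f * s, ?_, ?_⟩
  · have := cj_mem (g := s⁻¹) hf
    rw [cj_eq_iff.2 (hn (S.inv_mem hs))] at this
    simpa using this
  · rw [mul_assoc, cj_mul]
    exact cj_le_of (S.inv_mem hs) (h1.trans hle)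

/-- coprime decomposition (S0026), elementwise -/
theorem dec {A Y : Subgroup G} (hY : Group.IsNilpotent Y) (hn : A ≤ Nm Y)
    (hc : (Nat.card A).Coprime (Nat.card Y)) {y : G} (hy : y ∈ Y) :
    ∃ a ∈ ⁅Y, A⁆, ∃ c ∈ Y ⊓ Ce A, y = a * c := by
  have h := Cfsg.Agent.S0026.result A Y hn hc (Or.inr inferInstance)
  refine (mem_sup_nm (A := ⁅Y, A⁆) (B := Y ⊓ Ce A)
    fun g hg => nm_comm (Subgroup.le_normalizer hg.1) (ce_le_nm A hg.2)).1 ?_
  rwa [h]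

/-- generation by centralisers (S0058) -/
theorem gen58 {E K M : Subgroup G} (hE : E ≤ Ce E) (hcyc : ¬ IsCyclic E) (hn : E ≤ Nm K)
    (hc : (Nat.card E).Coprime (Nat.card K)) (h : ∀ e ∈ E, e ≠ 1 → K ⊓ Cg e ≤ M) : K ≤ M := by
  haveI : IsMulCommutative E :=
    ⟨⟨fun a b => Subtype.ext (Subgroup.mem_centralizer_iff.1 (hE b.2) a a.2)⟩⟩
  rw [← Cfsg.Agent.S0058.result E K hcyc hn hc]
  exact iSup₂_le fun a ha => h a ha.1 ha.2

/-- two commuting subgroups of order `p` -/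
theorem sup_pp {p : ℕ} (hp : p.Prime) {P Q : Subgroup G} (hP : Nat.card P = p) (hQ : Nat.card Q = p)
    (hne : Q ≠ P) (hc : Q ≤ Ce P) :
    Nat.card ↥(P ⊔ Q) = p ^ 2 ∧ P ⊔ Q ≤ Ce (P ⊔ Q) ∧ ¬ IsCyclic ↥(P ⊔ Q) ∧ IsPGroup p ↥(P ⊔ Q) ∧
      ∀ a ∈ P ⊔ Q, a ≠ 1 → Nat.card (Subgroup.zpowers a) = p := by
  haveI := Fact.mk hp
  have hn : Q ≤ Nm P := hc.trans (ce_le_nm P)
  have pP : IsPGroup p P := IsPGroup.of_card (n := 1) (by rw [hP, pow_one])
  have pQ : IsPGroup p Q := IsPGroup.of_card (n := 1) (by rw [hQ, pow_one])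
  have hinf : P ⊓ Q = ⊥ := by
    by_contra h
    exact hne ((eq_of_card hp hQ inf_le_right h).symm.trans (eq_of_card hp hP inf_le_left h))
  have hcard : Nat.card ↥(P ⊔ Q) = p ^ 2 := by
    let f : P × Q → ↥(P ⊔ Q) := fun x =>
      ⟨x.1 * x.2, Subgroup.mul_mem _ (Subgroup.mem_sup_left x.1.2) (Subgroup.mem_sup_right x.2.2)⟩
    have hf : Function.Bijective f := by
      constructor
      · rintro ⟨a, b⟩ ⟨a', b'⟩ h
        have h1 : (a : G) * b = a' * b' := congrArg Subtype.val h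
        have h2 : (a' : G)⁻¹ * a = b' * (b : G)⁻¹ := by
          calc (a' : G)⁻¹ * a = (a' : G)⁻¹ * (a * b) * (b : G)⁻¹ := by group
            _ = _ := by rw [h1]; group
        have h3 : (a' : G)⁻¹ * a ∈ P ⊓ Q :=
          ⟨P.mul_mem (P.inv_mem a'.2) a.2, h2 ▸ Q.mul_mem b'.2 (Q.inv_mem b.2)⟩
        rw [hinf, Subgroup.mem_bot] at h3
        have h4 : a' = a := Subtype.ext (inv_mul_eq_one.1 h3)
        subst h4
        rw [show b = b' from Subtype.ext (mul_left_cancel h1)]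
      · rintro ⟨g, hg⟩
        obtain ⟨a, ha, b, hb, rfl⟩ := (mem_sup_nm hn).1 hg
        exact ⟨(⟨a, ha⟩, ⟨b, hb⟩), rfl⟩
    rw [← Nat.card_eq_of_bijective f hf, Nat.card_prod, hP, hQ, pow_two]
  have cP : P ≤ Ce P := cent_of_card hp pP hP Subgroup.le_normalizer
  have cQ : Q ≤ Ce Q := cent_of_card hp pQ hQ Subgroup.le_normalizer
  have hexp : ∀ a ∈ P ⊔ Q, a ^ p = 1 := by
    intro g hg
    obtain ⟨a, ha, b, hb, rfl⟩ := (mem_sup_nm hn).1 hg
    have h0 : Commute a b := Subgroup.mem_centralizer_iff.1 (hc hb) a ha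
    have h1 : a ^ p = 1 := by
      have := pow_card_eq_one' (x := (⟨a, ha⟩ : P))
      rw [hP] at this
      exact congrArg Subtype.val this
    have h2 : b ^ p = 1 := by
      have := pow_card_eq_one' (x := (⟨b, hb⟩ : Q))
      rw [hQ] at this
      exact congrArg Subtype.val this
    rw [h0.mul_pow, h1, h2, one_mul]
  refine ⟨hcard, sup_le (ce_symm (sup_le cP hc)) (ce_symm (sup_le (ce_symm hc) cQ)), ?_,
    psup hn pP pQ, fun a ha a1 => ?_⟩
  · intro hcyc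
    obtain ⟨g, hg⟩ := IsCyclic.exists_ofOrder_eq_natCard (α := ↥(P ⊔ Q))
    have h1 : orderOf g ∣ p := orderOf_dvd_of_pow_eq_one (Subtype.ext (hexp g g.2))
    rw [hg, hcard] at h1
    have := Nat.le_of_dvd hp.pos h1
    nlinarith [hp.two_le]
  · rw [Nat.card_zpowers]
    exact orderOf_eq_prime (hexp a ha) a1

theorem cnt {p : ℕ} (hp : p.Prime) {A : Subgroup G} (hA : Nat.card A = p ^ 2) (T : Finset (Subgroup G))
    (hT : ∀ H ∈ T, H ≤ A ∧ Nat.card H = p) : T.card ≤ p + 1 := by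
  classical
  let φ : Subgroup G → Finset G := fun H => ((H : Set G).toFinite.toFinset).erase 1
  have hφ : ∀ H : Subgroup G, (φ H).card + 1 = Nat.card H := by
    intro H
    rw [Finset.card_erase_add_one (by simp), ← Set.ncard_eq_toFinset_card, ← Nat.card_coe_set_eq]
    rfl
  have hdisj : (T : Set (Subgroup G)).PairwiseDisjoint φ := by
    intro H hH K hK hne
    rw [Function.onFun, Finset.disjoint_left]
    intro a ha hb
    simp only [φ, Finset.mem_erase, Set.Finite.mem_toFinset, SetLike.mem_coe] at ha hb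
    have h : H ⊓ K ≠ ⊥ := fun h => ha.1 (by
      have : a ∈ H ⊓ K := ⟨ha.2, hb.2⟩
      rwa [h, Subgroup.mem_bot] at this)
    exact hne ((eq_of_card hp (hT H hH).2 inf_le_left h).symm.trans
      (eq_of_card hp (hT K hK).2 inf_le_right h))
  have h1 : (T.biUnion φ).card = T.card * (p - 1) := by
    rw [Finset.card_biUnion hdisj, Finset.sum_congr rfl (g := fun _ => p - 1), Finset.sum_const,
      smul_eq_mul]
    intro H hH
    have := hφ H
    rw [(hT H hH).2] at this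
    omega
  have h2 : (T.biUnion φ).card ≤ (φ A).card := by
    refine Finset.card_le_card fun a ha => ?_
    obtain ⟨H, hH, ha⟩ := Finset.mem_biUnion.1 ha
    simp only [φ, Finset.mem_erase, Set.Finite.mem_toFinset, SetLike.mem_coe] at ha ⊢
    exact ⟨ha.1, (hT H hH).1 ha.2⟩
  have h3 := hφ A
  rw [hA] at h3
  obtain ⟨m, rfl⟩ : ∃ m, p = m + 1 := ⟨p - 1, by have := hp.pos; omega⟩
  have hm : 1 ≤ m := by have := hp.two_le; omega
  rw [Nat.add_sub_cancel] at h1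
  by_contra hlt
  have : m + 3 ≤ T.card := by omega
  nlinarith

/-- maximal members of a family of `r`-groups that meet nontrivially are conjugate -/
theorem ticonj {r : ℕ} (hr : r.Prime) (E : Set (Subgroup G)) (Γ : Subgroup G)
    (hp : ∀ K ∈ E, IsPGroup r K) (hinf : ∀ K ∈ E, ∀ L ∈ E, K ⊓ L ∈ E)
    (hnm : ∀ K ∈ E, ∀ L ∈ E, K ⊓ Nm L ∈ E) (hcj : ∀ c ∈ Γ, ∀ K ∈ E, cj c K ∈ E)
    (hloc : ∀ L ∈ E, L ≠ ⊥ → ∀ K₁ ∈ E, ∀ K₂ ∈ E, K₁ ≤ Nm L → K₂ ≤ Nm L →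
      ∃ c ∈ Γ, ∃ D ∈ E, cj c K₁ ≤ D ∧ K₂ ≤ D)
    {D₁ D₂ : Subgroup G} (h1 : Maximal (· ∈ E) D₁) (h2 : Maximal (· ∈ E) D₂) (h : D₁ ⊓ D₂ ≠ ⊥) :
    ∃ c ∈ Γ, cj c D₁ = D₂ := by
  have hmax : ∀ c ∈ Γ, ∀ D, Maximal (· ∈ E) D → Maximal (· ∈ E) (cj c D) := by
    intro c hc D hD
    refine ⟨hcj c hc D hD.prop, fun K hK hle => ?_⟩
    have h3 : D ≤ cj c⁻¹ K := by
      have := cj_mono c⁻¹ hle
      rwa [cj_inv_cj] at this
    have := cj_mono c (hD.le_of_ge (hcj _ (Γ.inv_mem hc) K hK) h3)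
    rwa [cj_cj_inv] at this
  have hlt : ∀ {A B : Subgroup G}, A ≤ B → A ≠ B → Nat.card A < Nat.card B := by
    intro A B hle hne
    by_contra hn
    exact hne (Subgroup.eq_of_le_of_card_ge hle (not_lt.1 hn))
  have hbd : ∀ A : Subgroup G, Nat.card A ≤ Nat.card G := fun A => A.card_le_card_group
  suffices H : ∀ n, ∀ D₁ D₂ : Subgroup G, Maximal (· ∈ E) D₁ → Maximal (· ∈ E) D₂ → D₁ ⊓ D₂ ≠ ⊥ →
      Nat.card G - Nat.card ↥(D₁ ⊓ D₂) = n → ∃ c ∈ Γ, cj c D₁ = D₂ from H _ D₁ D₂ h1 h2 h rfl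
  intro n
  induction n using Nat.strong_induction_on with
  | _ n ih =>
  intro D₁ D₂ h1 h2 h hn
  by_cases e1 : D₁ ≤ D₂
  · exact ⟨1, Γ.one_mem, by rw [cj_one]; exact le_antisymm e1 (h1.le_of_ge h2.prop e1)⟩
  by_cases e2 : D₂ ≤ D₁
  · exact ⟨1, Γ.one_mem, by rw [cj_one]; exact le_antisymm (h2.le_of_ge h1.prop e2) e2⟩
  have hL := hinf _ h1.prop _ h2.prop
  have grow : ∀ D, D ∈ E → D₁ ⊓ D₂ ≤ D → ¬ D ≤ D₁ ⊓ D₂ →
      Nat.card ↥(D₁ ⊓ D₂) < Nat.card ↥(D ⊓ Nm (D₁ ⊓ D₂)) := by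
    intro D hD hle hn
    refine hlt (le_inf hle Subgroup.le_normalizer) fun he => hn ?_
    refine climb hr (hp D hD) fun n hn1 hn2 => ?_
    rw [inf_eq_right.2 hle] at hn2
    rw [he]
    exact ⟨hn1, hn2⟩
  have g1 := grow D₁ h1.prop inf_le_left fun h => e1 (h.trans inf_le_right)
  have g2 := grow D₂ h2.prop inf_le_right fun h => e2 (h.trans inf_le_left)
  obtain ⟨c, hc, D, hD, l1, l2⟩ := hloc _ hL h _ (hnm _ h1.prop _ hL) _ (hnm _ h2.prop _ hL)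
    inf_le_right inf_le_right
  obtain ⟨D₃, l3, h3⟩ := ex_max E hD
  have k1 : Nat.card ↥(D₁ ⊓ D₂) < Nat.card ↥(cj c D₁ ⊓ D₃) := by
    refine g1.trans_le ?_
    rw [← card_cj c]
    exact Subgroup.card_le_of_le (le_inf (cj_mono c inf_le_left) (l1.trans l3))
  have k2 : Nat.card ↥(D₁ ⊓ D₂) < Nat.card ↥(D₃ ⊓ D₂) :=
    g2.trans_le (Subgroup.card_le_of_le (le_inf (l2.trans l3) inf_le_left))
  have nb : ∀ A : Subgroup G, Nat.card ↥(D₁ ⊓ D₂) < Nat.card A → A ≠ ⊥ := by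
    intro A hA hb
    rw [hb, Subgroup.card_bot] at hA
    have := Nat.card_pos (α := ↥(D₁ ⊓ D₂))
    omega
  obtain ⟨c₁, hc₁, q1⟩ := ih _ (by have := hbd (cj c D₁ ⊓ D₃); omega) _ _ (hmax c hc _ h1) h3
    (nb _ k1) rfl
  obtain ⟨c₂, hc₂, q2⟩ := ih _ (by have := hbd (D₃ ⊓ D₂); omega) _ _ h3 h2 (nb _ k2) rfl
  exact ⟨c₂ * c₁ * c, Γ.mul_mem (Γ.mul_mem hc₂ hc₁) hc, by rw [cj_mul, cj_mul, q1, q2]⟩

end H33.F2C
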