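import Cfsg.Agent.Lib.F2C.Defs
import Cfsg.Agent.Lib.F2C.GB
import Cfsg.Agent.S0008

set_option autoImplicit false
set_option linter.unusedSectionVars false
set_option linter.unusedVariables false
set_option linter.style.haveILetI false

namespace H33.F2C

universe u

variable {G : Type*} [Group G] [Finite G]

namespace GA

theorem ssup_mem (S : Set (Subgroup G)) (h0 : ⊥ ∈ S) (hs : ∀ A ∈ S, ∀ B ∈ S, A ⊔ B ∈ S) :
    sSup S ∈ S := by
  obtain ⟨D, -, hD⟩ := ex_max S h0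
  have : sSup S = D := le_antisymm (sSup_le fun A hA =>
    le_sup_left.trans (hD.le_of_ge (hs A hA D hD.prop) le_sup_right)) (le_sSup hD.prop)
  rw [this]; exact hD.prop

theorem nm_bot (M : Subgroup G) : M ≤ Nm (⊥ : Subgroup G) := fun g _ => by
  rw [← cj_eq_iff, cj_bot]

theorem card_sup_dvd {A B : Subgroup G} (h : B ≤ Nm A) :
    Nat.card ↥(A ⊔ B) ∣ Nat.card B * Nat.card A := by
  haveI hN : (A.subgroupOf (A ⊔ B)).Normal :=
    (Subgroup.normal_subgroupOf_iff_le_normalizer le_sup_left).2 (sup_le Subgroup.le_normalizer h)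
  let f : B →* ↥(A ⊔ B) ⧸ A.subgroupOf (A ⊔ B) :=
    (QuotientGroup.mk' _).comp (Subgroup.inclusion le_sup_right)
  have hf : Function.Surjective f := by
    intro q
    obtain ⟨⟨g, hg⟩, rfl⟩ := QuotientGroup.mk'_surjective _ q
    obtain ⟨a, ha, b, hb, rfl⟩ := (mem_sup_nm h).1 hg
    refine ⟨⟨b, hb⟩, ?_⟩
    change QuotientGroup.mk _ = QuotientGroup.mk _
    rw [QuotientGroup.eq, Subgroup.mem_subgroupOf]
    have : b⁻¹ * a * b ∈ A := by
      have := cj_mem (g := b⁻¹) ha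
      rw [cj_eq_iff.2 (h (B.inv_mem hb))] at this
      simpa using this
    simpa [mul_assoc] using this
  rw [Subgroup.card_eq_card_quotient_mul_card_subgroup (A.subgroupOf (A ⊔ B)),
    Nat.card_congr (Subgroup.subgroupOfEquivOfLe (le_sup_left : A ≤ A ⊔ B)).toEquiv]
  exact Nat.mul_dvd_mul_right (Subgroup.card_dvd_of_surjective f hf) _

theorem cop_sup {s : ℕ} {A B : Subgroup G} (h : B ≤ Nm A) (hA : Cop s A) (hB : Cop s B) :
    Cop s (A ⊔ B) := Nat.Coprime.coprime_dvd_left (card_sup_dvd h) (Nat.Coprime.mul_left hB hA)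

theorem cop_bot (s : ℕ) : Cop s (⊥ : Subgroup G) := by
  unfold Cop; rw [Subgroup.card_bot]; exact Nat.coprime_one_left s

theorem le_fit {R M : Subgroup G} (h : R ≤ M) (hn : M ≤ Nm R) (hR : Group.IsNilpotent R) :
    R ≤ (Cfsg.fittingSubgroup M).map M.subtype := by
  have h1 : R.subgroupOf M ≤ Cfsg.fittingSubgroup M :=
    le_sSup ⟨(Subgroup.normal_subgroupOf_iff_le_normalizer h).2 hn,
      Group.nilpotent_of_mulEquiv (Subgroup.subgroupOfEquivOfLe h).symm⟩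
  intro g hg
  exact ⟨⟨g, h hg⟩, h1 hg, rfl⟩

theorem fit_nil (M : Subgroup G) : Group.IsNilpotent ((Cfsg.fittingSubgroup M).map M.subtype) := by
  haveI := Cfsg.Agent.S0008.result (G := M)
  exact Group.nilpotent_of_mulEquiv (Subgroup.equivMapOfInjective _ _ M.subtype_injective)

theorem os_mem (s : ℕ) (M : Subgroup G) : Os s M ≤ M ∧ M ≤ Nm (Os s M) ∧ IsPGroup s (Os s M) :=
  ssup_mem {R | R ≤ M ∧ M ≤ Nm R ∧ IsPGroup s R} ⟨bot_le, nm_bot M, IsPGroup.of_bot⟩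
    fun A hA B hB => ⟨sup_le hA.1 hB.1, fun g hg => nm_sup (hA.2.1 hg) (hB.2.1 hg),
      psup (hB.1.trans hA.2.1) hA.2.2 hB.2.2⟩

theorem oq_mem (s : ℕ) (M : Subgroup G) : Oq s M ≤ M ∧ M ≤ Nm (Oq s M) ∧ Cop s (Oq s M) :=
  ssup_mem {R | R ≤ M ∧ M ≤ Nm R ∧ Cop s R} ⟨bot_le, nm_bot M, cop_bot s⟩
    fun A hA B hB => ⟨sup_le hA.1 hB.1, fun g hg => nm_sup (hA.2.1 hg) (hB.2.1 hg),
      cop_sup (hB.1.trans hA.2.1) hA.2.2 hB.2.2⟩

theorem fp_mem (s : ℕ) (M : Subgroup G) :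
    Fp s M ≤ M ∧ M ≤ Nm (Fp s M) ∧ Group.IsNilpotent (Fp s M) ∧ Cop s (Fp s M) :=
  ssup_mem {R | R ≤ M ∧ M ≤ Nm R ∧ Group.IsNilpotent R ∧ Cop s R}
    ⟨bot_le, nm_bot M, inferInstance, cop_bot s⟩
    fun A hA B hB => ⟨sup_le hA.1 hB.1, fun g hg => nm_sup (hA.2.1 hg) (hB.2.1 hg),
      nil_le (sup_le (le_fit hA.1 hA.2.1 hA.2.2.1) (le_fit hB.1 hB.2.1 hB.2.2.1)) (fit_nil M),
      cop_sup (hB.1.trans hA.2.1) hA.2.2.2 hB.2.2.2⟩

theorem cj_nm_le {g : G} {M R : Subgroup G} (h : M ≤ Nm R) : cj g M ≤ Nm (cj g R) := by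
  rw [← cj_nm]; exact cj_mono g h

theorem cj_of_le {f : Subgroup G → Subgroup G} (h : ∀ g M, cj g (f M) ≤ f (cj g M)) (g : G)
    (M : Subgroup G) : cj g (f M) = f (cj g M) := by
  refine le_antisymm (h g M) ?_
  have := cj_mono g (h g⁻¹ (cj g M))
  rwa [cj_cj_inv, cj_inv_cj] at this

theorem parts {s : ℕ} (hs : s.Prime) (g : G) : ∃ a b : G, g = a * b ∧ a ∈ Subgroup.zpowers g ∧
    b ∈ Subgroup.zpowers g ∧ IsPGroup s (Subgroup.zpowers a) ∧ Cop s (Subgroup.zpowers b) ∧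
    (s ∣ orderOf g → orderOf b < orderOf g) := by
  have h0 : orderOf g ≠ 0 := (orderOf_pos g).ne'
  obtain ⟨k, m, hm, e⟩ := Nat.exists_eq_pow_mul_and_not_dvd h0 s hs.ne_one
  have hco : m.Coprime (s ^ k) := Nat.Coprime.pow_right k ((Nat.Prime.coprime_iff_not_dvd hs).2 hm).symm
  have hb := Nat.gcd_eq_gcd_ab m (s ^ k)
  rw [hco.gcd_eq_one] at hb
  have ha1 : ((g ^ m) ^ (Nat.gcdA m (s ^ k))) ^ s ^ k = 1 := by
    rw [← zpow_natCast _ (s ^ k), ← zpow_mul, mul_comm, zpow_mul, zpow_natCast, ← pow_mul, mul_comm,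
      ← e, pow_orderOf_eq_one, one_zpow]
  have hb1 : ((g ^ s ^ k) ^ (Nat.gcdB m (s ^ k))) ^ m = 1 := by
    rw [← zpow_natCast _ m, ← zpow_mul, mul_comm, zpow_mul, zpow_natCast, ← pow_mul,
      ← e, pow_orderOf_eq_one, one_zpow]
  have hm0 : 0 < m := Nat.pos_of_ne_zero (by rintro rfl; exact hm (dvd_zero s))
  refine ⟨(g ^ m) ^ (Nat.gcdA m (s ^ k)), (g ^ s ^ k) ^ (Nat.gcdB m (s ^ k)), ?_,
    Subgroup.zpow_mem _ (Subgroup.pow_mem _ (Subgroup.mem_zpowers g) _) _,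
    Subgroup.zpow_mem _ (Subgroup.pow_mem _ (Subgroup.mem_zpowers g) _) _, ?_, ?_, ?_⟩
  · rw [← zpow_natCast, ← zpow_natCast g, ← zpow_mul, ← zpow_mul, ← zpow_add, ← hb]
    simp
  · refine IsPGroup.of_card_dvd_pow (n := k) ?_
    rw [Nat.card_zpowers]
    exact orderOf_dvd_of_pow_eq_one ha1
  · unfold Cop
    rw [Nat.card_zpowers]
    exact Nat.Coprime.coprime_dvd_left (orderOf_dvd_of_pow_eq_one hb1)
      ((Nat.Prime.coprime_iff_not_dvd hs).2 hm).symm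
  · intro hd
    have h1 := Nat.le_of_dvd hm0 (orderOf_dvd_of_pow_eq_one hb1)
    have hk : k ≠ 0 := by
      rintro rfl
      rw [e, pow_zero, one_mul] at hd
      exact hm hd
    have h2 : 1 < s ^ k := Nat.one_lt_pow hk hs.one_lt
    rw [e]
    nlinarith

theorem elt_ind {T : Subgroup G} (n : ℕ) : ∀ g : G, orderOf g = n →
    (∀ s : ℕ, s.Prime → ∀ a ∈ Subgroup.zpowers g, IsPGroup s (Subgroup.zpowers a) → a ∈ T) → g ∈ T := by
  induction n using Nat.strong_induction_on with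
  | _ n ih =>
  intro g hn h
  by_cases h1 : orderOf g = 1
  · rw [orderOf_eq_one_iff.1 h1]; exact T.one_mem
  obtain ⟨s, hs, hd⟩ := Nat.exists_prime_and_dvd h1
  obtain ⟨a, b, e, ha, hb, pa, -, lt⟩ := parts hs g
  rw [e]
  refine T.mul_mem (h s hs a ha pa) (ih _ (hn ▸ lt hd) b rfl fun t ht c hc pc => h t ht c ?_ pc)
  exact (Subgroup.zpowers_le.2 hb) hc

end GA

theorem os_le (s : ℕ) (M : Subgroup G) : Os s M ≤ M := (GA.os_mem s M).1
theorem os_p {s : ℕ} (hs : s.Prime) (M : Subgroup G) : IsPGroup s (Os s M) := (GA.os_mem s M).2.2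
theorem le_os {s : ℕ} {R M : Subgroup G} (h : R ≤ M) (hn : M ≤ Nm R) (hp : IsPGroup s R) : R ≤ Os s M :=
  le_sSup ⟨h, hn, hp⟩
theorem cj_os (g : G) (s : ℕ) (M : Subgroup G) : cj g (Os s M) = Os s (cj g M) :=
  GA.cj_of_le (f := Os s) (fun g M => le_os (cj_mono g (GA.os_mem s M).1)
    (GA.cj_nm_le (GA.os_mem s M).2.1) (p_cj g (GA.os_mem s M).2.2)) g M
theorem nm_os (s : ℕ) (M : Subgroup G) : Nm M ≤ Nm (Os s M) := fun g hg => by
  rw [← cj_eq_iff, cj_os, cj_eq_iff.2 hg]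

theorem oq_le (s : ℕ) (M : Subgroup G) : Oq s M ≤ M := (GA.oq_mem s M).1
theorem oq_cop (s : ℕ) (M : Subgroup G) : Cop s (Oq s M) := (GA.oq_mem s M).2.2
theorem le_oq {s : ℕ} {R M : Subgroup G} (h : R ≤ M) (hn : M ≤ Nm R) (hp : Cop s R) : R ≤ Oq s M :=
  le_sSup ⟨h, hn, hp⟩
theorem cj_oq (g : G) (s : ℕ) (M : Subgroup G) : cj g (Oq s M) = Oq s (cj g M) :=
  GA.cj_of_le (f := Oq s) (fun g M => le_oq (cj_mono g (GA.oq_mem s M).1)
    (GA.cj_nm_le (GA.oq_mem s M).2.1) (cop_cj g (GA.oq_mem s M).2.2)) g M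
theorem nm_oq (s : ℕ) (M : Subgroup G) : Nm M ≤ Nm (Oq s M) := fun g hg => by
  rw [← cj_eq_iff, cj_oq, cj_eq_iff.2 hg]

theorem fp_le (p : ℕ) (M : Subgroup G) : Fp p M ≤ M := (GA.fp_mem p M).1
theorem fp_nil (p : ℕ) (M : Subgroup G) : Group.IsNilpotent (Fp p M) := (GA.fp_mem p M).2.2.1
theorem fp_cop (p : ℕ) (M : Subgroup G) : Cop p (Fp p M) := (GA.fp_mem p M).2.2.2
theorem le_fp {p : ℕ} {R M : Subgroup G} (h : R ≤ M) (hn : M ≤ Nm R) (hnil : Group.IsNilpotent R)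
    (hp : Cop p R) : R ≤ Fp p M := le_sSup ⟨h, hn, hnil, hp⟩
theorem cj_fp (g : G) (p : ℕ) (M : Subgroup G) : cj g (Fp p M) = Fp p (cj g M) :=
  GA.cj_of_le (f := Fp p) (fun g M => le_fp (cj_mono g (GA.fp_mem p M).1)
    (GA.cj_nm_le (GA.fp_mem p M).2.1) (nil_cj g (GA.fp_mem p M).2.2.1)
    (cop_cj g (GA.fp_mem p M).2.2.2)) g M
theorem nm_fp (p : ℕ) (M : Subgroup G) : Nm M ≤ Nm (Fp p M) := fun g hg => by
  rw [← cj_eq_iff, cj_fp, cj_eq_iff.2 hg]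

theorem inf_bot_of_cop {s : ℕ} {A B : Subgroup G} (hA : IsPGroup s A) (hs : s.Prime) (hB : Cop s B) :
    A ⊓ B = ⊥ := by
  haveI := Fact.mk hs
  obtain ⟨n, hn⟩ := IsPGroup.iff_card.1 hA
  exact Subgroup.inf_eq_bot_of_coprime (by rw [hn]; exact Nat.Coprime.pow_left n (Nat.Coprime.symm hB))

theorem cop_of_p {r s : ℕ} (hr : r.Prime) (hs : s.Prime) (h : r ≠ s) {A : Subgroup G}
    (hA : IsPGroup r A) : Cop s A := by
  haveI := Fact.mk hr
  obtain ⟨n, hn⟩ := IsPGroup.iff_card.1 hA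
  unfold Cop
  rw [hn]
  exact Nat.Coprime.pow_left n ((Nat.coprime_primes hr hs).2 h)

/-! nilpotent subgroups split into their `s`-part and `s'`-part -/
theorem le_os_nil {s : ℕ} (hs : s.Prime) {Q R : Subgroup G} (hQ : Group.IsNilpotent Q) (h : R ≤ Q)
    (hR : IsPGroup s R) : R ≤ Os s Q := by
  haveI := Fact.mk hs
  obtain ⟨P, hP⟩ := (hR.comap_subtype (K := Q)).exists_le_sylow
  have hN : (P : Subgroup Q).Normal := Sylow.normal_of_normalizerCondition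
    (Group.normalizerCondition_of_isNilpotent (G := Q)) P
  refine le_trans (fun g hg => (⟨⟨g, h hg⟩, hP hg, rfl⟩ : g ∈ (P : Subgroup Q).map Q.subtype))
    (le_os (Subgroup.map_subtype_le _) ?_ (P.isPGroup'.map _))
  rw [← Subgroup.normal_subgroupOf_iff_le_normalizer (Subgroup.map_subtype_le _)]
  rwa [Subgroup.subgroupOf, Subgroup.comap_map_eq_self_of_injective Q.subtype_injective]

theorem le_oq_nil {s : ℕ} (hs : s.Prime) {Q R : Subgroup G} (hQ : Group.IsNilpotent Q) (h : R ≤ Q)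
    (hR : Cop s R) : R ≤ Oq s Q := by
  intro g hg
  refine GA.elt_ind _ g rfl fun t ht a ha pa => ?_
  have haR : a ∈ R := (Subgroup.zpowers_le.2 hg) ha
  by_cases hts : t = s
  · subst hts
    have : a ∈ Subgroup.zpowers a ⊓ R := ⟨Subgroup.mem_zpowers a, haR⟩
    rw [inf_bot_of_cop pa hs hR, Subgroup.mem_bot] at this
    rw [this]; exact Subgroup.one_mem _
  · exact le_oq (os_le t Q) (GA.os_mem t Q).2.1 (cop_of_p ht hs hts (os_p ht Q))
      (le_os_nil ht hQ (Subgroup.zpowers_le.2 (h haR)) pa (Subgroup.mem_zpowers a))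

theorem comm_nil' {s : ℕ} (hs : s.Prime) {Q A B : Subgroup G} (hQ : Group.IsNilpotent Q) (hA : A ≤ Q)
    (hB : B ≤ Q) (hA' : IsPGroup s A) (hB' : Cop s B) : A ≤ Ce B := by
  have h1 : ⁅Os s Q, Oq s Q⁆ = ⊥ := by
    rw [eq_bot_iff, ← inf_bot_of_cop (os_p hs Q) hs (oq_cop s Q)]
    exact le_inf (comm_le_left ((oq_le s Q).trans (GA.os_mem s Q).2.1))
      (comm_le_right ((os_le s Q).trans (GA.oq_mem s Q).2.1))
  exact (le_os_nil hs hQ hA hA').trans ((comm_bot.1 h1).trans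
    (Subgroup.centralizer_le (le_oq_nil hs hQ hB hB')))

theorem comm_nil {Q A B : Subgroup G} (hQ : Group.IsNilpotent Q) (hA : A ≤ Q) (hB : B ≤ Q)
    (h : (Nat.card A).Coprime (Nat.card B)) : A ≤ Ce B := by
  intro g hg
  refine GA.elt_ind _ g rfl fun t ht a ha pa => ?_
  have haA : a ∈ A := (Subgroup.zpowers_le.2 hg) ha
  by_cases a1 : a = 1
  · rw [a1]; exact Subgroup.one_mem _
  haveI := Fact.mk ht
  have hd : t ∣ Nat.card A := by
    rcases pa.card_eq_or_dvd with h1 | h1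
    · rw [Nat.card_zpowers, orderOf_eq_one_iff] at h1
      exact absurd h1 a1
    · exact h1.trans (Subgroup.card_dvd_of_le (Subgroup.zpowers_le.2 haA))
  exact comm_nil' ht hQ (Subgroup.zpowers_le.2 (hA haA)) hB pa
    (Nat.Coprime.coprime_dvd_left hd h).symm (Subgroup.mem_zpowers a)

theorem split {s : ℕ} (hs : s.Prime) {Q : Subgroup G} (hQ : Group.IsNilpotent Q) {g : G} (hg : g ∈ Q) :
    ∃ a ∈ Os s Q, ∃ b ∈ Oq s Q, g = a * b ∧ a * b = b * a ∧ a ∈ Subgroup.zpowers g ∧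
      b ∈ Subgroup.zpowers g := by
  obtain ⟨a, b, e, ha, hb, pa, pb, -⟩ := GA.parts hs g
  have hz := Subgroup.zpowers_le.2 hg
  refine ⟨a, le_os_nil hs hQ (Subgroup.zpowers_le.2 (hz ha)) pa (Subgroup.mem_zpowers a), b,
    le_oq_nil hs hQ (Subgroup.zpowers_le.2 (hz hb)) pb (Subgroup.mem_zpowers b), e, ?_, ha, hb⟩
  obtain ⟨i, rfl⟩ := ha
  obtain ⟨j, rfl⟩ := hb
  exact (Commute.zpow_zpow_self g i j).eq

theorem gen_prime {Q M : Subgroup G} (hQ : Group.IsNilpotent Q)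
    (h : ∀ s : ℕ, s.Prime → Os s Q ≤ M) : Q ≤ M := fun g hg =>
  GA.elt_ind _ g rfl fun t ht a ha pa => h t ht
    (le_os_nil ht hQ (Subgroup.zpowers_le.2 ((Subgroup.zpowers_le.2 hg) ha)) pa (Subgroup.mem_zpowers a))

theorem ex_prime {Q : Subgroup G} (hQ : Group.IsNilpotent Q) (h : Q ≠ ⊥) :
    ∃ s : ℕ, s.Prime ∧ Os s Q ≠ ⊥ := by
  by_contra hn
  push Not at hn
  exact h (eq_bot_iff.2 (gen_prime hQ fun s hs => (hn s hs).le))

end H33.F2C
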