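import Cfsg.Agent.Lib.F2C.GA
import Cfsg.Agent.Lib.F2C.GB
import Cfsg.Agent.S0027

set_option autoImplicit false
set_option linter.unusedSectionVars false
set_option linter.unusedVariables false

open scoped commutatorElement

namespace H33.F2C

universe u

variable {G : Type*} [Group G] [Finite G]

variable {p : ℕ}

namespace GC

theorem conj_mem {z v : G} {Y : Subgroup G} (hz : z ∈ Nm Y) (hv : v ∈ Y) : z * v * z⁻¹ ∈ Y := by
  have := cj_mem (g := z) hv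
  rwa [cj_eq_iff.2 hz] at this

theorem cop_pt {P Y : Subgroup G} (hP : Nat.card P = p) (hc : Cop p Y) :
    (Nat.card P).Coprime (Nat.card Y) := by rw [hP]; exact Nat.Coprime.symm hc

theorem ord_cop {Y : Subgroup G} (hc : Cop p Y) {g : G} (hg : g ∈ Y) : (orderOf g).Coprime p :=
  Nat.Coprime.coprime_dvd_left (Y.orderOf_dvd_natCard hg) hc

theorem pt_p {P : Subgroup G} (hP : Nat.card P = p) : IsPGroup p P :=
  IsPGroup.of_card (n := 1) (by rw [hP, pow_one])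

theorem part {P Q A B : Subgroup G} (h : ⁅Q, P⁆ = Q) (hAQ : A ≤ Q) (hA : P ≤ Nm A) (hB : P ≤ Nm B)
    (hAB : A ≤ Ce B) (hi : A ⊓ B = ⊥) (hs : ∀ g ∈ Q, ∃ a ∈ A, ∃ b ∈ B, g = a * b) : ⁅A, P⁆ = A := by
  have hA' := comm_le_left hA
  have hB' := comm_le_left hB
  have h1 : Q ≤ ⁅A, P⁆ ⊔ ⁅B, P⁆ := by
    rw [← h, Subgroup.commutator_le]
    intro g hg c hc
    obtain ⟨a, ha, b, hb, rfl⟩ := hs g hg
    have hbc := Subgroup.commutator_mem_commutator hb hc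
    have e1 : ⁅b, c⁆ * a = a * ⁅b, c⁆ := Subgroup.mem_centralizer_iff.1 (hAB ha) _ (hB' hbc)
    have e : ⁅a * b, c⁆ = ⁅b, c⁆ * ⁅a, c⁆ := by
      calc ⁅a * b, c⁆ = (a * ⁅b, c⁆) * a⁻¹ * ⁅a, c⁆ := by simp only [commutatorElement_def]; group
        _ = _ := by rw [← e1, mul_inv_cancel_right]
    rw [e]
    exact Subgroup.mul_mem _ (Subgroup.mem_sup_right hbc)
      (Subgroup.mem_sup_left (Subgroup.commutator_mem_commutator ha hc))
  refine le_antisymm hA' fun a ha => ?_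
  have hn : ⁅B, P⁆ ≤ Nm ⁅A, P⁆ :=
    (hB'.trans ((ce_symm hAB).trans (Subgroup.centralizer_le hA'))).trans (ce_le_nm _)
  obtain ⟨u, hu, v, hv, e⟩ := (mem_sup_nm hn).1 (h1 (hAQ ha))
  have : v ∈ A ⊓ B := ⟨by
    have : v = u⁻¹ * a := by rw [e]; group
    rw [this]; exact A.mul_mem (A.inv_mem (hA' hu)) ha, hB' hv⟩
  rw [hi, Subgroup.mem_bot] at this
  rw [e, this, mul_one]
  exact hu

theorem kp_cj_le (g : G) (P Q : Subgroup G) : cj g (Kp p P Q) ≤ Kp p (cj g P) (cj g Q) := by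
  unfold cj Kp
  rw [Subgroup.map_le_iff_le_comap, Subgroup.closure_le]
  intro a ha
  refine Subgroup.subset_closure ⟨?_, ?_⟩
  · rw [← Subgroup.map_sup]
    exact ⟨a, ha.1, rfl⟩
  · rw [orderOf_injective _ (MulAut.conj g).injective]
    exact ha.2

end GC

theorem mem_bot (P : Subgroup G) : Mem p P ⊥ :=
  ⟨inferInstance, GA.cop_bot p, GA.nm_bot P, Subgroup.commutator_bot_left P⟩

theorem mem_comm {P Y : Subgroup G} (hP : Nat.card P = p) (hY : Group.IsNilpotent Y) (hc : Cop p Y)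
    (hn : P ≤ Nm Y) : Mem p P ⁅Y, P⁆ :=
  ⟨nil_le (comm_le_left hn) hY, cop_le (comm_le_left hn) hc,
    fun _ hg => nm_comm (hn hg) (Subgroup.le_normalizer hg),
    Cfsg.Agent.S0027.result P Y hn (GC.cop_pt hP hc) (Or.inr inferInstance)⟩

theorem le_nm {P Y T : Subgroup G} (hP : Nat.card P = p) (hY : Group.IsNilpotent Y) (hc : Cop p Y)
    (hn : P ≤ Nm Y) (h1 : ⁅Y, P⁆ ≤ T) (h2 : Ce P ≤ T) : Y ≤ T := by
  intro y hy
  obtain ⟨a, ha, c, hc', rfl⟩ := dec hY hn (GC.cop_pt hP hc) hy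
  exact T.mul_mem (h1 ha) (h2 hc'.2)

theorem mem_os {s : ℕ} (hs : s.Prime) {P Q : Subgroup G} (h : Mem p P Q) : Mem p P (Os s Q) :=
  ⟨nil_le (os_le s Q) h.nil, cop_le (os_le s Q) h.cop, h.nrm.trans (nm_os s Q),
    GC.part h.com (os_le s Q) (h.nrm.trans (nm_os s Q)) (h.nrm.trans (nm_oq s Q))
      (comm_nil' hs h.nil (os_le s Q) (oq_le s Q) (os_p hs Q) (oq_cop s Q))
      (inf_bot_of_cop (os_p hs Q) hs (oq_cop s Q)) fun g hg => by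
        obtain ⟨a, ha, b, hb, e, -⟩ := split hs h.nil hg
        exact ⟨a, ha, b, hb, e⟩⟩

theorem mem_oq {s : ℕ} (hs : s.Prime) {P Q : Subgroup G} (h : Mem p P Q) : Mem p P (Oq s Q) :=
  ⟨nil_le (oq_le s Q) h.nil, cop_le (oq_le s Q) h.cop, h.nrm.trans (nm_oq s Q),
    GC.part h.com (oq_le s Q) (h.nrm.trans (nm_oq s Q)) (h.nrm.trans (nm_os s Q))
      (ce_symm (comm_nil' hs h.nil (os_le s Q) (oq_le s Q) (os_p hs Q) (oq_cop s Q)))
      (by rw [inf_comm]; exact inf_bot_of_cop (os_p hs Q) hs (oq_cop s Q)) fun g hg => by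
        obtain ⟨a, ha, b, hb, e, e', -⟩ := split hs h.nil hg
        exact ⟨b, hb, a, ha, e.trans e'⟩⟩

theorem mem_bot_of_ce {P Q : Subgroup G} (h : Mem p P Q) (hc : Q ≤ Ce P) : Q = ⊥ := by
  rw [← h.com]; exact comm_bot.2 hc

theorem mem_ne_p (hp : p.Prime) {r : ℕ} {P Q : Subgroup G} (h : Mem p P Q) (hr : IsPGroup r Q)
    (hne : Q ≠ ⊥) : r ≠ p := by
  rintro rfl
  exact hne (by simpa using inf_bot_of_cop hr hp h.cop)

theorem Mem.conj {P Q : Subgroup G} (h : Mem p P Q) (g : G) : Mem p (cj g P) (cj g Q) :=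
  ⟨nil_cj g h.nil, cop_cj g h.cop, GA.cj_nm_le h.nrm, by rw [← cj_comm, h.com]⟩

theorem Mx.conj {r : ℕ} {P U : Subgroup G} (h : Mx p r P U) (g : G) : Mx p r (cj g P) (cj g U) := by
  refine ⟨h.mem.conj g, p_cj g h.grp, fun hb => h.ne (cj_eq_bot.1 hb), fun Q hQ hr hle => ?_⟩
  have h1 := hQ.conj g⁻¹
  rw [cj_inv_cj] at h1
  have h2 := cj_mono g⁻¹ hle
  rw [cj_inv_cj] at h2
  rw [← h.max _ h1 (p_cj _ hr) h2, cj_cj_inv]

theorem Ln.conj {P L : Subgroup G} (h : Ln p P L) (g : G) : Ln p (cj g P) (cj g L) := by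
  refine ⟨h.mem.conj g, fun hb => h.ne (cj_eq_bot.1 hb), fun Q hQ hle => ?_⟩
  have h1 := hQ.conj g⁻¹
  rw [cj_inv_cj] at h1
  have h2 := cj_mono g⁻¹ hle
  rw [cj_inv_cj] at h2
  rw [← h.max _ h1 h2, cj_cj_inv]

theorem MC.conj {P : Subgroup G} (h : MC p P) (g : G) : MC p (cj g P) := by
  obtain ⟨M, hM, hP, h⟩ := h
  refine ⟨cj g M, fun ht => hM (cj_eq_top.1 ht), cj_mono g hP, fun Q hQ => ?_⟩
  have h1 := hQ.conj g⁻¹
  rw [cj_inv_cj] at h1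
  have := cj_mono g (h _ h1)
  rwa [cj_cj_inv] at this

theorem mx_ex {r : ℕ} {P Q : Subgroup G} (h : Mem p P Q) (hr : IsPGroup r Q) (hne : Q ≠ ⊥) :
    ∃ U, Mx p r P U ∧ Q ≤ U := by
  obtain ⟨U, hU, m⟩ := ex_max {K | Mem p P K ∧ IsPGroup r K} (K := Q) ⟨h, hr⟩
  exact ⟨U, ⟨m.prop.1, m.prop.2, fun hb => hne (eq_bot_iff.2 (hb ▸ hU)),
    fun K h1 h2 h3 => le_antisymm (m.le_of_ge ⟨h1, h2⟩ h3) h3⟩, hU⟩

theorem ln_ex {P Q : Subgroup G} (h : Mem p P Q) (hne : Q ≠ ⊥) : ∃ L, Ln p P L ∧ Q ≤ L := by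
  obtain ⟨U, hU, m⟩ := ex_max {K | Mem p P K} (K := Q) h
  exact ⟨U, ⟨m.prop, fun hb => hne (eq_bot_iff.2 (hb ▸ hU)),
    fun K h1 h3 => le_antisymm (m.le_of_ge h1 h3) h3⟩, hU⟩

theorem kp_comm (P Q : Subgroup G) : Kp p P Q = Kp p Q P := by
  unfold Kp; rw [sup_comm]

theorem cj_kp (g : G) (P Q : Subgroup G) : cj g (Kp p P Q) = Kp p (cj g P) (cj g Q) := by
  refine le_antisymm (GC.kp_cj_le g P Q) ?_
  have := cj_mono g (GC.kp_cj_le (p := p) g⁻¹ (cj g P) (cj g Q))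
  rwa [cj_cj_inv, cj_inv_cj, cj_inv_cj] at this

theorem kp_le (P Q : Subgroup G) : Kp p P Q ≤ P ⊔ Q := (Subgroup.closure_le _).2 fun _ h => h.1

theorem kp_p (hp : p.Prime) {P Q S : Subgroup G} (hS : IsPGroup p S) (hP : P ≤ S) (hQ : Q ≤ S) :
    Kp p P Q = ⊥ := by
  refine eq_bot_iff.2 ((Subgroup.closure_le _).2 fun g hg => ?_)
  have : g ∈ (⊥ : Subgroup G) ⊔ S := Subgroup.mem_sup_right (sup_le hP hQ hg.1)
  exact cop_mem hp (GA.nm_bot S) hS this hg.2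

/-- two subgroups of order `p` inside `Y P₁` -/
theorem pure (hp : p.Prime) {Y P₁ P₂ : Subgroup G} (hY : Group.IsNilpotent Y) (hc : Cop p Y)
    (h1 : Nat.card P₁ = p) (h2 : Nat.card P₂ = p) (hn : P₁ ≤ Nm Y) (hle : P₂ ≤ Y ⊔ P₁) :
    Kp p P₁ P₂ ≤ Y ∧ Mem p P₁ (Kp p P₁ P₂) ∧ Mem p P₂ (Kp p P₁ P₂) ∧
      (∃ k ∈ Kp p P₁ P₂, P₂ = cj k P₁) ∧ (Kp p P₁ P₂ = ⊥ → P₂ = P₁) := by
  have p1 := GC.pt_p h1
  have hJ : P₁ ⊔ P₂ ≤ Y ⊔ P₁ := sup_le le_sup_right hle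
  have hK : Kp p P₁ P₂ = Y ⊓ (P₁ ⊔ P₂) := by
    apply le_antisymm
    · exact (Subgroup.closure_le _).2 fun g hg => ⟨cop_mem hp hn p1 (hJ hg.1) hg.2, hg.1⟩
    · exact fun g hg => Subgroup.subset_closure ⟨hg.2, GC.ord_cop hc hg.1⟩
  set K := Kp p P₁ P₂ with hKdef
  have hKY : K ≤ Y := hK ▸ inf_le_left
  have hKn : P₁ ≤ Nm K := fun g hg => by
    rw [hK]; exact nm_inf (hn hg) (Subgroup.le_normalizer (Subgroup.mem_sup_left hg))
  have hKc := cop_le hKY hc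
  have hKl := nil_le hKY hY
  have h3 : P₂ ≤ K ⊔ P₁ := by
    intro g hg
    obtain ⟨y, hy, a, ha, rfl⟩ := (mem_sup_nm hn).1 (hle hg)
    refine Subgroup.mul_mem _ (Subgroup.mem_sup_left ?_) (Subgroup.mem_sup_right ha)
    rw [hK]
    refine ⟨hy, ?_⟩
    have := Subgroup.mul_mem _ (Subgroup.mem_sup_right (S := P₁) hg)
      (Subgroup.inv_mem _ (Subgroup.mem_sup_left (T := P₂) ha))
    simpa using this
  obtain ⟨f, hf, h4⟩ := cj_into hp hKc hKn p1 (GC.pt_p h2) h3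
  have h5 : cj f P₂ = P₁ := Subgroup.eq_of_le_of_card_ge h4 (by rw [card_cj, h1, h2])
  have h6 : P₂ = cj f⁻¹ P₁ := by rw [← h5, cj_inv_cj]
  have hm : Mem p P₁ K := by
    refine ⟨hKl, hKc, hKn, le_antisymm (comm_le_left hKn) fun g hg => ?_⟩
    obtain ⟨a, ha, c, hc', e⟩ := dec hKl hKn (GC.cop_pt h1 hKc) (K.inv_mem hf)
    have h7 : P₂ ≤ ⁅K, P₁⁆ ⊔ P₁ := by
      rw [h6, e, cj_mul, cj_of_ce hc'.2]
      exact cj_le_of (Subgroup.mem_sup_left ha) le_sup_right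
    exact cop_mem hp (fun g hg => nm_comm (hKn hg) (Subgroup.le_normalizer hg)) p1
      (sup_le le_sup_right h7 (kp_le _ _ hg)) (GC.ord_cop hKc hg)
  refine ⟨hKY, hm, ?_, ⟨f⁻¹, K.inv_mem hf, h6⟩, fun hb => ?_⟩
  · have := hm.conj f⁻¹
    rwa [← h6, cj_of_mem (K.inv_mem hf)] at this
  · rw [hb, Subgroup.mem_bot] at hf
    rw [h6, hf, inv_one, cj_one]

theorem mem_gen {P Q M : Subgroup G} (h : Mem p P Q) (hM : ∀ a ∈ Q, Kp p P (cj a P) ≤ M) : Q ≤ M := by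
  rw [← h.com, Subgroup.commutator_le]
  intro a ha c hc
  refine hM a ha (Subgroup.subset_closure ⟨?_, GC.ord_cop h.cop
    (comm_le_left h.nrm (Subgroup.commutator_mem_commutator ha hc))⟩)
  rw [commutatorElement_def]
  exact Subgroup.mul_mem _ (Subgroup.mem_sup_right (cj_mem hc))
    (Subgroup.mem_sup_left (P.inv_mem hc))

theorem ex_move (hp : p.Prime) {P Q : Subgroup G} (hP : Nat.card P = p) (h : Mem p P Q) (hne : Q ≠ ⊥) :
    ∃ a ∈ Q, cj a P ≠ P := by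
  by_contra hn
  push Not at hn
  apply hne
  rw [eq_bot_iff, ← inf_bot_of_cop (GC.pt_p hP) hp h.cop]
  refine le_inf ?_ le_rfl
  rw [← h.com]
  exact comm_le_right fun a ha => cj_eq_iff.1 (hn a ha)

theorem cent_pt (hp : p.Prime) {P Y : Subgroup G} (hP : Nat.card P = p) (hc : Cop p Y) (hn : P ≤ Nm Y)
    {z v : G} (hz : z ∈ Ce P) (hzY : z ∈ Nm Y) (hv : v ∈ Y) (h : z ∈ Nm (cj v P)) :
    z ∈ Ce (cj v P) := by
  rw [Subgroup.mem_centralizer_iff]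
  intro d hd
  have hc' : v⁻¹ * d * v ∈ P := mem_cj.1 hd
  set c := v⁻¹ * d * v with hcdef
  have hd' : d = v * c * v⁻¹ := by rw [hcdef]; group
  have hzc : c * z = z * c := Subgroup.mem_centralizer_iff.1 hz c hc'
  have h1 : z * d * z⁻¹ * d⁻¹ ∈ cj v P :=
    Subgroup.mul_mem _ (GC.conj_mem h hd) (Subgroup.inv_mem _ hd)
  have h2 : z * d * z⁻¹ * d⁻¹ ∈ Y := by
    have e : z * d * z⁻¹ * d⁻¹ =
        (z * v * z⁻¹) * (c * ((z * v * z⁻¹)⁻¹ * v) * c⁻¹) * v⁻¹ := by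
      rw [hd']
      calc z * (v * c * v⁻¹) * z⁻¹ * (v * c * v⁻¹)⁻¹
          = z * v * z⁻¹ * (z * c) * v⁻¹ * z⁻¹ * v * c⁻¹ * v⁻¹ := by group
        _ = _ := by rw [← hzc]; group
    rw [e]
    have hv' := GC.conj_mem hzY hv
    exact Y.mul_mem (Y.mul_mem hv' (GC.conj_mem (hn hc') (Y.mul_mem (Y.inv_mem hv') hv))) (Y.inv_mem hv)
  have h3 : z * d * z⁻¹ * d⁻¹ ∈ cj v P ⊓ Y := ⟨h1, h2⟩
  rw [inf_bot_of_cop (p_cj v (GC.pt_p hP)) hp hc, Subgroup.mem_bot] at h3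
  calc d * z = (z * d * z⁻¹ * d⁻¹) * (d * z) := by rw [h3, one_mul]
    _ = z * d := by group

end H33.F2C
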