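import Cfsg.Agent.Lib.F2C.GC

set_option autoImplicit false
set_option linter.unusedSectionVars false
set_option linter.unusedVariables false
set_option linter.style.haveILetI false

namespace H33.F2C

universe u

variable {G : Type*} [Group G] [Finite G]

variable {p : ℕ} {X : Set (Subgroup G)}

theorem Hy.pt_p (hy : Hy p X) {P : Subgroup G} (hP : P ∈ X) : IsPGroup p P := GC.pt_p (hy.card P hP)

theorem Hy.pt_ne (hy : Hy p X) {P : Subgroup G} (hP : P ∈ X) : P ≠ ⊥ := by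
  intro h
  have := hy.card P hP
  rw [h, Subgroup.card_bot] at this
  exact hy.pr.one_lt.ne this

theorem Hy.pt_ce (hy : Hy p X) {P : Subgroup G} (hP : P ∈ X) : P ≤ Ce P :=
  cent_of_card hy.pr (hy.pt_p hP) (hy.card P hP) Subgroup.le_normalizer

theorem Hy.pt_top (hy : Hy p X) {P : Subgroup G} (hP : P ∈ X) : P ≠ ⊤ := fun h =>
  hy.two P hP 1 (by rw [h, top_sup_eq])

theorem Hy.nm_ne (hy : Hy p X) {D : Subgroup G} (hD : D ≠ ⊥) (h : Group.IsNilpotent D) : Nm D ≠ ⊤ :=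
  hy.nosolv D hD inferInstance

theorem Hy.ce_ne (hy : Hy p X) {D : Subgroup G} (hD : D ≠ ⊥) : Ce D ≠ ⊤ := by
  intro h
  have hc : D ≤ Ce D := h ▸ le_top
  refine hy.nm_ne hD ((Subgroup.isNilpotent_iff_lowerCentralSeries D).2 ⟨1, comm_bot.2 hc⟩) ?_
  exact eq_top_iff.2 (h ▸ ce_le_nm D)

theorem Hy.cg_ne (hy : Hy p X) {a : G} (ha : a ≠ 1) : Cg a ≠ ⊤ := by
  rw [cg_eq_ce]
  exact hy.ce_ne (by simpa using ha)

theorem Hy.comm_le (hy : Hy p X) {M P Y : Subgroup G} (hM : M ≠ ⊤) (hP : P ∈ X) (hPM : P ≤ M)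
    (hY : Y ≤ M) (hn : P ≤ Nm Y) (hc : Cop p Y) : ⁅Y, P⁆ ≤ Fp p M := by
  obtain ⟨F, S, h1, h2, h3, h4, h5, h6, h7, h8⟩ := hy.loc M hM P hP hPM
  have h : ⁅Y, P⁆ ≤ F ⊔ S := by
    rw [Subgroup.commutator_le]
    intro y hy' c hc'
    rw [commutatorElement_def]
    exact Subgroup.mul_mem _ (h8 y (hY hy') (cj_mem hc')) (Subgroup.mem_sup_right (h6 (P.inv_mem hc')))
  intro g hg
  exact le_fp h3 h4 h1 h2 (cop_mem hy.pr (h7.trans h4) h5 (h hg) (GC.ord_cop hc (comm_le_left hn hg)))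

theorem Hy.mem_le_fp (hy : Hy p X) {M P Q : Subgroup G} (hM : M ≠ ⊤) (hP : P ∈ X) (hPM : P ≤ M)
    (hQ : Mem p P Q) (h : Q ≤ M) : Q ≤ Fp p M :=
  hQ.com.ge.trans (hy.comm_le hM hP hPM h hQ.nrm hQ.cop)

theorem Hy.mem_le_w (hy : Hy p X) {M P Q : Subgroup G} (hM : M ≠ ⊤) (hP : P ∈ X) (hPM : P ≤ M)
    (hQ : Mem p P Q) (h : Q ≤ M) : Q ≤ W p P M :=
  hQ.com.ge.trans (Subgroup.commutator_mono (hy.mem_le_fp hM hP hPM hQ h) le_rfl)

theorem Hy.mem_w (hy : Hy p X) {M P : Subgroup G} (hP : P ∈ X) (hPM : P ≤ M) : Mem p P (W p P M) :=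
  mem_comm (hy.card P hP) (fp_nil p M) (fp_cop p M)
    (hPM.trans (Subgroup.le_normalizer.trans (nm_fp p M)))

theorem w_le {M P : Subgroup G} (hPM : P ≤ M) : W p P M ≤ Fp p M :=
  comm_le_left (hPM.trans (Subgroup.le_normalizer.trans (nm_fp p M)))

theorem nm_w {M P : Subgroup G} {g : G} (h1 : g ∈ Nm M) (h2 : g ∈ Nm P) : g ∈ Nm (W p P M) :=
  nm_comm (nm_fp p M h1) h2

/-- two members of coprime orders in a proper subgroup commute -/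
theorem Hy.mem_comm2 (hy : Hy p X) {M P P' A B : Subgroup G} {s : ℕ} (hs : s.Prime) (hM : M ≠ ⊤)
    (hP : P ∈ X) (hPM : P ≤ M) (hP' : P' ∈ X) (hPM' : P' ≤ M) (hA : Mem p P A) (hB : Mem p P' B)
    (hAM : A ≤ M) (hBM : B ≤ M) (hA' : IsPGroup s A) (hB' : Cop s B) : A ≤ Ce B :=
  comm_nil' hs (fp_nil p M) (hy.mem_le_fp hM hP hPM hA hAM) (hy.mem_le_fp hM hP' hPM' hB hBM) hA' hB'

/-- the two-generator trick -/
theorem Hy.h2 (hy : Hy p X) {P : Subgroup G} (hP : P ∈ X) {k t : G} (hk : k ∈ P ⊔ cj k P)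
    (ht : t ∈ Nm P) : ∃ H : Subgroup G, H ≠ ⊤ ∧ P ≤ H ∧ cj k P ≤ H ∧ t ∈ H := by
  have h1 : k * t ∈ P ⊔ Subgroup.zpowers (k * t) := Subgroup.mem_sup_right (Subgroup.mem_zpowers _)
  have h2 : cj k P ≤ P ⊔ Subgroup.zpowers (k * t) := by
    have := cj_le_of h1 (le_sup_left : P ≤ _)
    rwa [cj_mul, cj_eq_iff.2 ht] at this
  refine ⟨_, hy.two P hP (k * t), le_sup_left, h2, ?_⟩
  have := Subgroup.mul_mem _ (Subgroup.inv_mem _ (sup_le le_sup_left h2 hk)) h1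
  simpa using this

/-- any point is joined by a member to a point adjacent to a given point -/
theorem Hy.pair (hy : Hy p X) {P P' : Subgroup G} (hP : P ∈ X) (hP' : P' ∈ X) :
    ∃ P₃ ∈ X, ∃ S : Subgroup G, IsPGroup p S ∧ P ≤ S ∧ P₃ ≤ S ∧ Mem p P₃ (Kp p P₃ P') ∧
      ∃ k ∈ Kp p P₃ P', P' = cj k P₃ := by
  obtain ⟨g, hg⟩ := hy.trans P hP P' hP'
  obtain ⟨F, S, h1, h2, h3, h4, h5, h6, h7, h8⟩ := hy.loc _ (hy.two P hP g) P hP le_sup_left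
  have h9 : P' ≤ F ⊔ S := hg ▸ h8 g (Subgroup.mem_sup_right (Subgroup.mem_zpowers g))
  obtain ⟨f, hf, h10⟩ := cj_into hy.pr h2 (h7.trans h4) h5 (hy.pt_p hP') h9
  have h3' := hy.conj P' hP' f
  obtain ⟨-, a, -, b, -⟩ := pure hy.pr h1 h2 (hy.card _ h3') (hy.card _ hP') (h10.trans (h7.trans h4))
    (by rw [sup_cj hf]; exact le_sup_right)
  exact ⟨_, h3', S, h5, h6, h10, a, b⟩

theorem Hy.adj (hy : Hy p X) (h : ∀ P ∈ X, ∀ P' ∈ X, P' ≤ Ce P → P' = P) {P P' S : Subgroup G}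
    (hP : P ∈ X) (hP' : P' ∈ X) (hS : IsPGroup p S) (h1 : P ≤ S) (h2 : P' ≤ S) : P' = P := by
  have h3 : S ≤ Nm P := by
    refine climb hy.pr hS fun n hn hn' => ?_
    rw [← cj_eq_iff]
    refine h P hP _ (hy.conj P hP n) (cent_of_card hy.pr (p_cj n (hy.pt_p hP)) (hy.card P hP) ?_)
    have := cj_mono n (le_inf h1 Subgroup.le_normalizer : P ≤ S ⊓ Nm P)
    rw [cj_eq_iff.2 hn'] at this
    exact this.trans inf_le_right
  exact h P hP P' hP' (cent_of_card hy.pr (hy.pt_p hP') (hy.card P hP) (h2.trans h3))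

/-- it suffices to place the prime-power members -/
theorem mc_of_mx {P M : Subgroup G} (hM : M ≠ ⊤) (hPM : P ≤ M)
    (h : ∀ s : ℕ, s.Prime → ∀ U, Mx p s P U → U ≤ M) : MC p P := by
  refine ⟨M, hM, hPM, fun Q hQ => gen_prime hQ.nil fun s hs => ?_⟩
  by_cases hb : Os s Q = ⊥
  · rw [hb]; exact bot_le
  obtain ⟨U, hU, hle⟩ := mx_ex (mem_os hs hQ) (os_p hs Q) hb
  exact hle.trans (h s hs U hU)

end H33.F2C
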