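import Cfsg.Agent.Lib.F2C.GA
import Cfsg.Agent.Lib.F2C.GB
import Cfsg.Agent.S0008

set_option autoImplicit false
set_option linter.unusedSectionVars false

namespace H33.F2C.R1

theorem lc_eq {G : Type*} [Group G] (B : Subgroup G) (n : ℕ) : lc B n = B.lowerCentralSeries n := by
  induction n with
  | zero => rfl
  | succ n ih => rw [Subgroup.lowerCentralSeries_succ, ← ih]; rfl

theorem normal_iff {G : Type*} [Group G] {B : Subgroup G} : B.Normal ↔ ⊤ ≤ Nm B := by
  rw [top_le_iff]; exact Subgroup.normalizer_eq_top_iff.symm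

end H33.F2C.R1

namespace H33.F2C

universe u

variable {G : Type*} [Group G] [Finite G]

theorem lc_le (B : Subgroup G) (n : ℕ) : lc B n ≤ B := by
  rw [R1.lc_eq]; exact B.lowerCentralSeries_le_self n
theorem lc_succ_le (B : Subgroup G) (n : ℕ) : lc B (n + 1) ≤ lc B n := by
  rw [R1.lc_eq, R1.lc_eq]; exact B.lowerCentralSeries_antitone n.le_succ
theorem lc_anti (B : Subgroup G) {m n : ℕ} (h : m ≤ n) : lc B n ≤ lc B m := by
  rw [R1.lc_eq, R1.lc_eq]; exact B.lowerCentralSeries_antitone h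
theorem lc_mono {A B : Subgroup G} (h : A ≤ B) (n : ℕ) : lc A n ≤ lc B n := by
  rw [R1.lc_eq, R1.lc_eq]; exact Subgroup.lowerCentralSeries_mono n h
theorem lc_map {G' : Type*} [Group G'] (f : G →* G') (B : Subgroup G) (n : ℕ) :
    (lc B n).map f = lc (B.map f) n := by
  rw [R1.lc_eq, R1.lc_eq]; exact B.map_lowerCentralSeries f n
theorem nm_lc (B : Subgroup G) (n : ℕ) : Nm B ≤ Nm (lc B n) := fun g hg => by
  rw [← cj_eq_iff] at hg ⊢
  exact (lc_map _ B n).trans (congrArg (lc · n) hg)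
theorem nil_iff_lc (B : Subgroup G) : Group.IsNilpotent B ↔ ∃ n, lc B n = ⊥ := by
  simp only [R1.lc_eq]; exact B.isNilpotent_iff_lowerCentralSeries
theorem nil_map_iff (N B : Subgroup G) [N.Normal] :
    Group.IsNilpotent (B.map (QuotientGroup.mk' N)) ↔ ∃ n, lc B n ≤ N := by
  simp only [nil_iff_lc, ← lc_map, Subgroup.map_eq_bot_iff, QuotientGroup.ker_mk']
theorem Meta.mono {A B : Subgroup G} (hB : Meta B) (h : A ≤ B) : Meta A :=
  hB.imp fun n hn => nil_le (lc_mono h n) hn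
theorem Meta.map {G' : Type*} [Group G'] {B : Subgroup G} (hB : Meta B) (f : G →* G') :
    Meta (B.map f) := hB.imp fun n hn => by
  rw [← lc_map]
  have : Group.IsNilpotent (lc B n) := hn
  exact Group.nilpotent_of_surjective (f.subgroupMap (lc B n)) (f.subgroupMap_surjective _)
theorem Meta.of_map {G' : Type*} [Group G'] {B : Subgroup G} (f : G →* G') (hf : Function.Injective f)
    (hB : Meta (B.map f)) : Meta B := hB.imp fun n hn => by
  rw [← lc_map] at hn
  exact Group.nilpotent_of_mulEquiv ((lc B n).equivMapOfInjective f hf).symm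
theorem Meta.solv {B : Subgroup G} (hB : Meta B) : Group.IsSolvable B := by
  have h : Meta (⊤ : Subgroup B) := Meta.of_map B.subtype B.subtype_injective (by
    rwa [← MonoidHom.range_eq_map, Subgroup.range_subtype])
  obtain ⟨n, hn⟩ := h
  have : (lc (⊤ : Subgroup B) n).Normal := R1.normal_iff.2 (Subgroup.le_normalizer.trans (nm_lc _ n))
  have h1 := (nil_map_iff (lc (⊤ : Subgroup B) n) ⊤).2 ⟨n, le_rfl⟩
  rw [Subgroup.map_top_of_surjective _ (QuotientGroup.mk'_surjective _), Group.isNilpotent_top] at h1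
  exact Group.isSolvable_of_ker_le_range (lc (⊤ : Subgroup B) n).subtype
    (QuotientGroup.mk' (lc (⊤ : Subgroup B) n))
    (by rw [QuotientGroup.ker_mk', Subgroup.range_subtype])
theorem meta_of_nil {B : Subgroup G} (hB : Group.IsNilpotent B) : Meta B := ⟨0, hB⟩
theorem ncl_le {K : Subgroup G} {x : G} (hx : x ∈ K) : ncl K x ≤ K :=
  (Subgroup.closure_le _).2 (by
    rintro _ ⟨k, hk, rfl⟩
    exact K.mul_mem (K.mul_mem hk hx) (K.inv_mem hk))
theorem mem_ncl (K : Subgroup G) (x : G) : x ∈ ncl K x :=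
  Subgroup.subset_closure ⟨1, K.one_mem, by simp⟩
theorem nm_ncl (K : Subgroup G) (x : G) : K ≤ Nm (ncl K x) := fun g hg => by
  rw [← cj_eq_iff]
  refine Subgroup.eq_of_le_of_card_ge ?_ (card_cj _ _).ge
  rw [cj, ncl, MonoidHom.map_closure]
  refine Subgroup.closure_mono ?_
  rintro _ ⟨_, ⟨k, hk, rfl⟩, rfl⟩
  exact ⟨g * k, K.mul_mem hg hk, by simp [mul_assoc]⟩
theorem ncl_normal (x : G) : (ncl ⊤ x).Normal := R1.normal_iff.2 (nm_ncl ⊤ x)
theorem ncl_le_of {K T : Subgroup G} {x : G} (hx : x ∈ T) (h : K ≤ Nm T) : ncl K x ≤ T :=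
  (Subgroup.closure_le _).2 (by
    rintro _ ⟨k, hk, rfl⟩
    have := cj_mem (g := k) hx
    rwa [cj_eq_iff.2 (h hk)] at this)
theorem ncl_map {G' : Type*} [Group G'] (f : G →* G') (K : Subgroup G) (x : G) :
    (ncl K x).map f = ncl (K.map f) (f x) := by
  rw [ncl, ncl, MonoidHom.map_closure]
  congr 1
  ext g
  constructor
  · rintro ⟨_, ⟨k, hk, rfl⟩, rfl⟩
    exact ⟨f k, ⟨k, hk, rfl⟩, by simp⟩
  · rintro ⟨_, ⟨k, hk, rfl⟩, rfl⟩
    exact ⟨_, ⟨k, hk, rfl⟩, by simp⟩
theorem meta_f2 : Meta (F2 G) := by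
  obtain ⟨n, hn⟩ := (nil_map_iff (Cfsg.fittingSubgroup G) (F2 G)).1
    (nil_le (Subgroup.map_comap_le _ _) Cfsg.Agent.S0008.result)
  exact ⟨n, nil_le hn Cfsg.Agent.S0008.result⟩
theorem f2_iff (x : G) : x ∈ F2 G ↔ Meta (ncl ⊤ x) := by
  constructor
  · intro hx
    have : (F2 G).Normal := Subgroup.Normal.comap inferInstance _
    exact meta_f2.mono (ncl_le_of hx (R1.normal_iff.1 this))
  · rintro ⟨n, hn⟩
    have h1 := ncl_normal x
    have h2 : lc (ncl ⊤ x) n ≤ Cfsg.fittingSubgroup G :=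
      le_sSup ⟨R1.normal_iff.2 ((nm_ncl ⊤ x).trans (nm_lc _ n)), hn⟩
    have h3 : (ncl ⊤ x).map (QuotientGroup.mk' _) ≤ Cfsg.fittingSubgroup (G ⧸ Cfsg.fittingSubgroup G) :=
      le_sSup ⟨h1.map _ (QuotientGroup.mk'_surjective _), (nil_map_iff _ _).2 ⟨n, h2⟩⟩
    exact h3 ⟨x, mem_ncl _ x, rfl⟩
/-- a group that is nilpotent modulo `D` and generated by `p`-elements is a `p`-group modulo `D` -/
theorem pmod {p : ℕ} (hp : p.Prime) {K D : Subgroup G} {x : G} {n k : ℕ} (hx : x ^ p ^ k = 1)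
    (hD : lc (ncl K x) n ≤ D) (hn : ncl K x ≤ Nm D) {g : G} (hg : g ∈ ncl K x) :
    ∃ j, g ^ p ^ j ∈ D := by
  have : (D.subgroupOf (ncl K x)).Normal := Subgroup.normal_subgroupOf_of_le_normalizer hn
  have h1 := (nil_map_iff (D.subgroupOf (ncl K x)) ⊤).2 ⟨n, by
    rw [Subgroup.subgroupOf, ← Subgroup.map_le_iff_le_comap, lc_map, ← MonoidHom.range_eq_map,
      Subgroup.range_subtype]
    exact hD⟩
  rw [Subgroup.map_top_of_surjective _ (QuotientGroup.mk'_surjective _)] at h1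
  have h2 : QuotientGroup.mk' (D.subgroupOf (ncl K x)) ⟨g, hg⟩ ∈ Os p ⊤ := by
    induction hg using Subgroup.closure_induction with
    | mem g hg =>
      obtain ⟨c, hc, rfl⟩ := hg
      refine le_os_nil hp h1 le_top ?_ (Subgroup.mem_zpowers _)
      rintro ⟨_, m, rfl⟩
      refine ⟨k, Subtype.ext ?_⟩
      simp only [Subgroup.coe_pow, OneMemClass.coe_one]
      rw [← zpow_natCast, ← zpow_mul, mul_comm m, zpow_mul, zpow_natCast, ← map_pow]
      have : (⟨c * x * c⁻¹, Subgroup.subset_closure ⟨c, hc, rfl⟩⟩ : ncl K x) ^ p ^ k = 1 :=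
        Subtype.ext (by simp [hx])
      rw [this, map_one, one_zpow]
    | one => exact (map_one (QuotientGroup.mk' (D.subgroupOf (ncl K x)))).symm ▸ one_mem _
    | mul a b ha hb iha ihb => exact (map_mul (QuotientGroup.mk' (D.subgroupOf (ncl K x)))
        ⟨a, ha⟩ ⟨b, hb⟩).symm ▸ mul_mem iha ihb
    | inv a ha iha => exact (map_inv (QuotientGroup.mk' (D.subgroupOf (ncl K x)))
        ⟨a, ha⟩).symm ▸ inv_mem iha
  obtain ⟨j, hj⟩ := os_p hp _ ⟨_, h2⟩
  have h3 := congrArg Subtype.val hj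
  simp only [Subgroup.coe_pow, OneMemClass.coe_one] at h3
  rw [← map_pow, QuotientGroup.mk'_apply, QuotientGroup.eq_one_iff] at h3
  exact ⟨j, h3⟩

end H33.F2C
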