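import Cfsg.Agent.Lib.F2C.R1

set_option autoImplicit false
set_option linter.unusedSectionVars false

namespace H33.F2C.R2

variable {G : Type*} [Group G] [Finite G]

theorem cj_zp (g x : G) : cj g (Subgroup.zpowers x) = Subgroup.zpowers (g * x * g⁻¹) :=
  MonoidHom.map_zpowers _ x

theorem nil_of_ce {A : Subgroup G} (h : A ≤ Ce A) : Group.IsNilpotent A :=
  (nil_iff_lc A).2 ⟨1, comm_bot.2 h⟩

theorem card_lt {M : Subgroup G} (hM : M ≠ ⊤) : Nat.card M < Nat.card G :=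
  lt_of_le_of_ne M.card_le_card_group fun h => hM (Subgroup.eq_top_of_card_eq M h)

theorem ncl_conj (g x : G) : ncl ⊤ x ≤ ncl ⊤ (g * x * g⁻¹) :=
  ncl_le_of (Subgroup.subset_closure ⟨g⁻¹, trivial, by group⟩) (nm_ncl _ _)

theorem le_sup_syl {p : ℕ} (hp : p.Prime) {B D P : Subgroup G} (hn : B ≤ Nm D)
    (h : ∀ g ∈ B, ∃ j, g ^ p ^ j ∈ D) (hP : IsPGroup p P) (hPB : P ≤ B) :
    ∃ S : Subgroup G, IsPGroup p S ∧ P ≤ S ∧ S ≤ B ∧ B ≤ D ⊔ S ∧
      ∀ R : Subgroup G, R ≤ B → B ≤ Nm R → IsPGroup p R → R ≤ S := by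
  have := Fact.mk hp
  have : (D.subgroupOf B).Normal := Subgroup.normal_subgroupOf_of_le_normalizer hn
  obtain ⟨S, hS⟩ := (hP.comap_subtype (K := B)).exists_le_sylow
  refine ⟨(S : Subgroup B).map B.subtype, S.isPGroup'.map _, fun a ha => ⟨⟨a, hPB ha⟩, hS ha, rfl⟩,
    Subgroup.map_subtype_le _, ?_, fun R h1 h2 h3 a ha => ?_⟩
  · have h1 : IsPGroup p (B ⧸ D.subgroupOf B) := fun q => by
      obtain ⟨g, rfl⟩ := QuotientGroup.mk_surjective q
      obtain ⟨j, hj⟩ := h g g.2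
      exact ⟨j, by rw [← QuotientGroup.mk_pow, QuotientGroup.eq_one_iff]; exact hj⟩
    obtain ⟨k, hk⟩ := IsPGroup.iff_card.1 h1
    have h2 : (D.subgroupOf B ⊔ S).index = 1 := Nat.eq_one_of_dvd_coprimes
      (((Nat.Prime.coprime_iff_not_dvd hp).2 S.not_dvd_index).pow_left k)
      (hk ▸ Subgroup.index_dvd_of_le le_sup_left) (Subgroup.index_dvd_of_le le_sup_right)
    have h3 := congrArg (Subgroup.map B.subtype) (Subgroup.index_eq_one.1 h2)
    rw [Subgroup.map_sup, ← MonoidHom.range_eq_map, Subgroup.range_subtype,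
      Subgroup.subgroupOf_map_subtype] at h3
    exact h3.ge.trans (sup_le_sup_right inf_le_left _)
  · have : (R.comap B.subtype).Normal := Subgroup.normal_subgroupOf_of_le_normalizer h2
    exact ⟨⟨a, h1 ha⟩, (h3.comap_subtype (K := B)).le_sylow_of_normal S ha, rfl⟩

end H33.F2C.R2

namespace H33.F2C

universe u

variable {G : Type*} [Group G] [Finite G]

theorem Hyp.pow {x : G} (h : Hyp x) (k : ℕ) : Hyp (x ^ k) := fun y =>
  (h y).mono (ncl_le_of (pow_mem (mem_ncl _ x) k) (le_trans ((Subgroup.closure_le _).2 (by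
    rintro _ (rfl | rfl)
    · exact pow_mem (Subgroup.subset_closure (by simp)) k
    · exact Subgroup.subset_closure (by simp))) (nm_ncl _ x)))
theorem Hyp.conj {x : G} (h : Hyp x) (g : G) : Hyp (g * x * g⁻¹) := fun y => by
  obtain ⟨y, rfl⟩ := (MulAut.conj g).surjective y
  have := (h y).map (MulAut.conj g).toMonoidHom
  rwa [ncl_map, MonoidHom.map_closure, Set.image_pair] at this
theorem Hyp.map {G' : Type*} [Group G'] {x : G} (h : Hyp x) (f : G →* G') (hf : Function.Surjective f) :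
    Hyp (f x) := fun y => by
  obtain ⟨y, rfl⟩ := hf y
  have := (h y).map f
  rwa [ncl_map, MonoidHom.map_closure, Set.image_pair] at this
theorem Hyp.sub {x : G} (h : Hyp x) {M : Subgroup G} (hx : x ∈ M) : Hyp (⟨x, hx⟩ : M) := fun y =>
  Meta.of_map M.subtype M.subtype_injective (by
    rw [ncl_map, MonoidHom.map_closure, Set.image_pair]
    exact h y)
theorem meta_sub {x : G} {M : Subgroup G} (hx : x ∈ M) :
    Meta (ncl ⊤ (⟨x, hx⟩ : M)) ↔ Meta (ncl M x) := by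
  have e : (ncl ⊤ (⟨x, hx⟩ : M)).map M.subtype = ncl M x := by
    rw [ncl_map, ← MonoidHom.range_eq_map, Subgroup.range_subtype]
    rfl
  rw [← e]
  exact ⟨fun h => h.map _, Meta.of_map _ M.subtype_injective⟩
theorem red_p {x : G} (h : Hyp x)
    (hp : ∀ p : ℕ, p.Prime → ∀ (x' : G) (k : ℕ), x' ^ p ^ k = 1 → Hyp x' → Meta (ncl ⊤ x')) :
    Meta (ncl ⊤ x) := by
  rw [← f2_iff]
  refine gen_prime (Q := Subgroup.zpowers x) (R2.nil_of_ce ?_) (fun s hs a ha => ?_)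
    (Subgroup.mem_zpowers x)
  · rw [← cg_eq_ce, Subgroup.zpowers_le]
    exact Subgroup.mem_centralizer_singleton_iff.2 rfl
  obtain ⟨j, hj⟩ := os_p hs _ ⟨a, ha⟩
  obtain ⟨k, rfl⟩ := mem_powers_iff_mem_zpowers.2 (os_le s _ ha)
  exact (f2_iff _).2 (hp s hs _ j (congrArg Subtype.val hj) (h.pow k))

variable {H : Type u} [Group H] [Finite H]

theorem IH.sub (ih : IH H) {x : H} (h : Hyp x) {M : Subgroup H} (hM : M ≠ ⊤) (hx : x ∈ M) :
    Meta (ncl M x) := (meta_sub hx).1 (ih M (R2.card_lt hM) _ (h.sub hx))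
theorem IH.gen (ih : IH H) {x : H} (h : Hyp x) (hx : ncl ⊤ x ≠ ⊤) : Meta (ncl ⊤ x) := by
  refine (meta_f2.map (ncl ⊤ x).subtype).mono ((Subgroup.closure_le _).2 ?_)
  rintro _ ⟨g, hg, rfl⟩
  have hc : g * x * g⁻¹ ∈ ncl ⊤ x := Subgroup.subset_closure ⟨g, hg, rfl⟩
  exact ⟨⟨_, hc⟩, (f2_iff _).2 (ih _ (R2.card_lt hx) _ ((h.conj g).sub hc)), rfl⟩
theorem IH.quo (ih : IH H) {x : H} (h : Hyp x) (hx : ncl ⊤ x = ⊤) (N : Subgroup H) [N.Normal]
    (hN : N ≠ ⊥) : ∃ n m, lc (lc (⊤ : Subgroup H) n) m ≤ N := by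
  have hlt : Nat.card (H ⧸ N) < Nat.card H := by
    rw [← N.card_mul_index]
    exact (Nat.lt_mul_iff_one_lt_left Nat.card_pos).2 (N.one_lt_card_iff_ne_bot.2 hN)
  obtain ⟨n, hn⟩ := ih (H ⧸ N) hlt _ (h.map (QuotientGroup.mk' N) (QuotientGroup.mk'_surjective N))
  rw [← Subgroup.map_top_of_surjective _ (QuotientGroup.mk'_surjective N), ← ncl_map, hx,
    ← lc_map, nil_map_iff] at hn
  exact ⟨n, hn⟩
theorem IH.mkhy (ih : IH H) {x : H} {p : ℕ} (hp : p.Prime) (ho : orderOf x = p) (h : Hyp x)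
    (hx : ncl ⊤ x = ⊤) (hs : ∀ D : Subgroup H, D.Normal → Group.IsSolvable D → D = ⊥) :
    Hy p {P | ∃ g : H, P = cj g (Subgroup.zpowers x)} where
  pr := hp
  card := by
    rintro _ ⟨g, rfl⟩
    rw [card_cj, Nat.card_zpowers, ho]
  ne := ⟨_, 1, rfl⟩
  conj := by
    rintro _ ⟨g, rfl⟩ g'
    exact ⟨g' * g, (cj_mul _ _ _).symm⟩
  trans := by
    rintro _ ⟨g, rfl⟩ _ ⟨g', rfl⟩
    exact ⟨g' * g⁻¹, by rw [cj_mul, cj_inv_cj]⟩
  nosolv D h1 h2 h3 := h1 (hs D (R1.normal_iff.2 h3.ge) h2)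
  gen := by
    rw [eq_top_iff, ← hx]
    refine (Subgroup.closure_le _).2 ?_
    rintro _ ⟨g, -, rfl⟩
    exact le_sSup (s := {P | ∃ g : H, P = cj g (Subgroup.zpowers x)}) ⟨g, rfl⟩
      (cj_mem (Subgroup.mem_zpowers x))
  two := by
    rintro _ ⟨g, rfl⟩ y e
    have h1 := h.conj g y
    rw [R2.cj_zp, Subgroup.zpowers_eq_closure, Subgroup.zpowers_eq_closure, ← Subgroup.closure_union,
      Set.singleton_union] at e
    rw [e] at h1
    have h2 := hs ⊤ inferInstance (h1.mono (hx.ge.trans (R2.ncl_conj g x))).solv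
    have h3 : x = 1 := Subgroup.mem_bot.1 (h2 ▸ Subgroup.mem_top x)
    rw [h3, orderOf_one] at ho
    exact hp.one_lt.ne ho
  loc := by
    rintro M hM _ ⟨g, rfl⟩ hP
    have hpP : IsPGroup p (cj g (Subgroup.zpowers x)) :=
      IsPGroup.of_card (n := 1) (by rw [card_cj, Nat.card_zpowers, ho, pow_one])
    rw [R2.cj_zp] at hP hpP ⊢
    have hc := hP (Subgroup.mem_zpowers _)
    have hcp : (g * x * g⁻¹) ^ p ^ 1 = 1 := by
      rw [pow_one, conj_pow, ← ho, pow_orderOf_eq_one, mul_one, mul_inv_cancel]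
    generalize hcc : g * x * g⁻¹ = c at *
    obtain ⟨n, hn⟩ := ih.sub (hcc ▸ h.conj g) hM hc
    have hB : M ≤ Nm (lc (ncl M c) n) := (nm_ncl M c).trans (nm_lc _ n)
    have hBM := ncl_le hc
    have hPB : Subgroup.zpowers c ≤ ncl M c := (Subgroup.zpowers_le).2 (mem_ncl M c)
    obtain ⟨S, h1, h2, h3, h4, h5⟩ := R2.le_sup_syl hp (hBM.trans hB)
      (fun g hg => pmod hp hcp le_rfl (hBM.trans hB) hg) hpP hPB
    refine ⟨Oq p (lc (ncl M c) n), S, nil_le (oq_le _ _) hn, oq_cop _ _,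
      (oq_le _ _).trans ((lc_le _ n).trans hBM), hB.trans (nm_oq _ _), h1, h2, h3.trans hBM,
      fun m hm => ?_⟩
    refine ((cj_mono m hPB).trans (cj_eq_iff.2 (nm_ncl M c hm)).le).trans
      (h4.trans (sup_le (fun d hd => ?_) le_sup_right))
    obtain ⟨a, ha, b, hb, e, hab, -⟩ := split hp hn hd
    rw [e, hab]
    exact Subgroup.mul_mem_sup hb (h5 _ ((os_le _ _).trans (lc_le _ n))
      ((hBM.trans hB).trans (nm_os _ _)) (os_p hp _) ha)

end H33.F2C
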